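import Cfsg.Agent.H937.L34Seven

/-!
# `L₃(4)` has an irreducible character whose degree is not in a given list (helper746, for S4941)

The proof is arithmetic: for an involution `t` of `T = L₃(4)`, whose centraliser has order at most `64`,
the values `v = ψ(t)` are integers congruent to `ψ(1)` modulo `16`, and the sums of `v ^ 2` and of `v ψ(1)` over the
irreducible characters leave no solution with the degrees in the list.
-/

set_option autoImplicit false
open Cfsg
open scoped Matrix MatrixGroups ComplexConjugate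

universe u

namespace Cfsg.Agent.H746.L34

open Cfsg.Agent.Characters.Core Cfsg.Agent.H937.L34 Cfsg.Agent.H686.CharKit

section mat

variable {F : Type*} [Field F]

/-- unitriangular matrices. -/
def ut (b c e : F) : Matrix.SpecialLinearGroup (Fin 3) F :=
  ⟨!![1, b, c; 0, 1, e; 0, 0, 1], by simp [Matrix.det_fin_three]⟩

theorem cent_sl [Fintype F] (hF : Fintype.card F = 4) (g : Matrix.SpecialLinearGroup (Fin 3) F)
    (h : g * us 1 0 = us 1 0 * g) : ∃ b c e : F,
      (QuotientGroup.mk g : Matrix.ProjectiveSpecialLinearGroup (Fin 3) F) = QuotientGroup.mk (ut b c e) := by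
  have h0 : (g : Matrix (Fin 3) (Fin 3) F) * um 1 0 = um 1 0 * (g : Matrix (Fin 3) (Fin 3) F) :=
    congrArg Subtype.val h
  have h00 := congrFun (congrFun h0 0) 2
  have h10 := congrFun (congrFun h0 1) 2
  have h01 := congrFun (congrFun h0 0) 0
  have h02 := congrFun (congrFun h0 0) 1
  simp [um, Matrix.mul_apply, Fin.sum_univ_three] at h00 h10 h01 h02
  have hdet := g.det_coe
  rw [Matrix.det_fin_three, h10, h01, h02] at hdet
  set a := (g : Matrix (Fin 3) (Fin 3) F) 0 0 with ha
  have h22 : (g : Matrix (Fin 3) (Fin 3) F) 2 2 = a := by linear_combination -h00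
  rw [h22] at hdet
  have hd : a * (g : Matrix (Fin 3) (Fin 3) F) 1 1 * a = 1 := by linear_combination hdet
  have ha0 : a ≠ 0 := by
    rintro h
    rw [h] at hd
    simp at hd
  have ha3 : a ^ 3 = 1 := by
    have := FiniteField.pow_card_sub_one_eq_one a ha0
    rwa [hF] at this
  have h11 : (g : Matrix (Fin 3) (Fin 3) F) 1 1 = a := by
    have h1 : a ^ 2 * ((g : Matrix (Fin 3) (Fin 3) F) 1 1 - a) = 0 := by linear_combination hd - ha3
    rcases mul_eq_zero.1 h1 with h2 | h2
    · exact absurd h2 (pow_ne_zero 2 ha0)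
    · linear_combination h2
  set z : Matrix.SpecialLinearGroup (Fin 3) F := ⟨Matrix.scalar (Fin 3) a, by simp [ha3]⟩ with hz
  have hzc : z ∈ Subgroup.center (Matrix.SpecialLinearGroup (Fin 3) F) := by
    rw [Matrix.SpecialLinearGroup.mem_center_iff]
    exact ⟨a, by simpa using ha3, rfl⟩
  refine ⟨(g : Matrix (Fin 3) (Fin 3) F) 0 1 / a, (g : Matrix (Fin 3) (Fin 3) F) 0 2 / a,
    (g : Matrix (Fin 3) (Fin 3) F) 1 2 / a, ?_⟩
  have hg : g = z * ut ((g : Matrix (Fin 3) (Fin 3) F) 0 1 / a) ((g : Matrix (Fin 3) (Fin 3) F) 0 2 / a)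
      ((g : Matrix (Fin 3) (Fin 3) F) 1 2 / a) := by
    apply Subtype.ext
    show (g : Matrix (Fin 3) (Fin 3) F) = Matrix.scalar (Fin 3) a * !![1, (g : Matrix (Fin 3) (Fin 3) F) 0 1 / a,
      (g : Matrix (Fin 3) (Fin 3) F) 0 2 / a; 0, 1, (g : Matrix (Fin 3) (Fin 3) F) 1 2 / a; 0, 0, 1]
    ext i j
    fin_cases i <;> fin_cases j <;>
      simp [Matrix.mul_apply, Fin.sum_univ_three, h22, h11, h10, h01, h02, ha]
    all_goals (rw [← ha]; field_simp)
  have hm : (QuotientGroup.mk z : Matrix.ProjectiveSpecialLinearGroup (Fin 3) F) = 1 :=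
    (QuotientGroup.eq_one_iff _).2 hzc
  calc (QuotientGroup.mk g : Matrix.ProjectiveSpecialLinearGroup (Fin 3) F) =
      QuotientGroup.mk z * QuotientGroup.mk (ut ((g : Matrix (Fin 3) (Fin 3) F) 0 1 / a)
        ((g : Matrix (Fin 3) (Fin 3) F) 0 2 / a) ((g : Matrix (Fin 3) (Fin 3) F) 1 2 / a)) := by
        rw [← QuotientGroup.mk_mul, ← hg]
    _ = _ := by rw [hm, one_mul]

theorem char_two [Fintype F] (hF : Fintype.card F = 4) : CharP F 2 := by
  obtain ⟨p, hp⟩ := CharP.exists F
  have : Fact p.Prime := ⟨CharP.char_is_prime F p⟩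
  obtain ⟨n, hp', hn⟩ := FiniteField.card F p
  rw [hF] at hn
  have h1 : p ∣ 2 ^ 2 := by
    rw [show 2 ^ 2 = 4 from rfl, hn]
    exact dvd_pow_self p n.ne_zero
  have h2 : p = 2 := (Nat.prime_dvd_prime_iff_eq hp' Nat.prime_two).1 (hp'.dvd_of_dvd_pow h1)
  rwa [h2] at hp

theorem cent_psl [Fintype F] (hF : Fintype.card F = 4) (x : Matrix.ProjectiveSpecialLinearGroup (Fin 3) F)
    (h : x * QuotientGroup.mk (us 1 0) = QuotientGroup.mk (us 1 0) * x) : ∃ b c e : F,
      x = QuotientGroup.mk (ut b c e) := by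
  have := char_two hF
  obtain ⟨g, rfl⟩ := QuotientGroup.mk_surjective x
  apply cent_sl hF
  have h1 : (QuotientGroup.mk (g * us 1 0 * g⁻¹ * us 1 0) : Matrix.ProjectiveSpecialLinearGroup (Fin 3) F) = 1 := by
    rw [QuotientGroup.mk_mul, QuotientGroup.mk_mul, QuotientGroup.mk_mul, h, QuotientGroup.mk_inv,
      mul_inv_cancel_right, ← QuotientGroup.mk_mul, us_mul, CharTwo.add_self_eq_zero, add_zero, us_zero,
      QuotientGroup.mk_one]
  have h2 := (QuotientGroup.eq_one_iff _).1 h1
  have hus : us (1 : F) 0 * us 1 0 = 1 := by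
    rw [us_mul, CharTwo.add_self_eq_zero, add_zero, us_zero]
  -- `z = g u g⁻¹ u` is a scalar; `z u` is an involution, so `z ^ 2 = 1`
  rw [Matrix.SpecialLinearGroup.mem_center_iff] at h2
  obtain ⟨r, hr3, hr⟩ := h2
  have h3 : g * us 1 0 = (g * us 1 0 * g⁻¹ * us 1 0) * us 1 0 * g := by
    rw [mul_assoc (g * us 1 0 * g⁻¹), hus, mul_one, inv_mul_cancel_right]
  set z := g * us 1 0 * g⁻¹ * us 1 0 with hz
  have hzc : ∀ y, z * y = y * z := by
    intro y
    have h4 : z ∈ Subgroup.center (Matrix.SpecialLinearGroup (Fin 3) F) := by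
      rw [Matrix.SpecialLinearGroup.mem_center_iff]
      exact ⟨r, hr3, hr⟩
    exact (Subgroup.mem_center_iff.1 h4 y).symm
  have h5 : z * z = 1 := by
    have h6 : z * us 1 0 = g * us 1 0 * g⁻¹ := by rw [hz, mul_assoc, hus, mul_one]
    have h7 : (z * us 1 0) * (z * us 1 0) = 1 := by
      rw [h6]
      calc g * us 1 0 * g⁻¹ * (g * us 1 0 * g⁻¹) = g * (us 1 0 * us 1 0) * g⁻¹ := by group
        _ = 1 := by rw [hus]; group
    calc z * z = z * z * (us 1 0 * us 1 0) := by rw [hus, mul_one]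
      _ = z * (z * us 1 0) * us 1 0 := by group
      _ = z * (us 1 0 * z) * us 1 0 := by rw [hzc (us 1 0)]
      _ = (z * us 1 0) * (z * us 1 0) := by group
      _ = 1 := h7
  have h8 : r * r = 1 := by
    have h9 : (z : Matrix (Fin 3) (Fin 3) F) * (z : Matrix (Fin 3) (Fin 3) F) = 1 := by
      have := congrArg Subtype.val h5
      exact this
    rw [← hr] at h9
    have h10 := congrFun (congrFun h9 0) 0
    simpa using h10
  have h9 : r = 1 := by
    simp only [Fintype.card_fin] at hr3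
    have : r ^ 3 = r * (r * r) := by ring
    rw [this, h8, mul_one] at hr3
    exact hr3
  have h10 : z = 1 := by
    apply Subtype.ext
    rw [← hr, h9]
    simp
  rw [h10, one_mul] at h3
  exact h3

theorem card_cent [Fintype F] (hF : Fintype.card F = 4) {T : Type*} [Group T] [Finite T]
    (e : T ≃* Matrix.ProjectiveSpecialLinearGroup (Fin 3) F) (t : T) (ht : e t = QuotientGroup.mk (us 1 0)) :
    Nat.card (Subgroup.centralizer ({t} : Set T)) ≤ 64 := by
  have h1 : Nat.card (F × F × F) = 64 := by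
    rw [Nat.card_prod, Nat.card_prod, Nat.card_eq_fintype_card, hF]
  rw [← h1]
  have h2 : ∀ x : Subgroup.centralizer ({t} : Set T), ∃ p : F × F × F,
      e x = QuotientGroup.mk (ut p.1 p.2.1 p.2.2) := by
    intro x
    have h3 := Subgroup.mem_centralizer_singleton_iff.1 x.2
    obtain ⟨b, c, d, h⟩ := cent_psl hF (e x) (by rw [← ht, ← map_mul, ← map_mul, h3])
    exact ⟨(b, c, d), h⟩
  choose f hf using h2
  refine Nat.card_le_card_of_injective f fun x y hxy => ?_
  apply Subtype.ext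
  apply e.injective
  rw [hf, hf, hxy]

end mat

section val

variable {T : Type*} [Group T] [Finite T]

omit [Finite T] in
/-- an average over a group of order two. -/
theorem int_val {t : T} (htt : t * t = 1) {ψ : T → ℂ} (hψ : IsIrrCharacter T ψ) {d : ℕ} (hd : ψ 1 = d) :
    ∃ v : ℤ, ψ t = v := by
  have hψc := isIrr_isCharacter hψ
  have hZ : (ZMod.lift 2 ⟨(zmultiplesHom (Additive T)) (Additive.ofMul t), by
      show (2 : ℤ) • Additive.ofMul t = 0
      rw [two_zsmul, ← ofMul_mul, htt, ofMul_one]⟩) 1 = Additive.ofMul t := by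
    have := ZMod.lift_coe 2 ⟨(zmultiplesHom (Additive T)) (Additive.ofMul t), by
      show (2 : ℤ) • Additive.ofMul t = 0
      rw [two_zsmul, ← ofMul_mul, htt, ofMul_one]⟩ 1
    rw [Int.cast_one] at this
    rw [this]
    simp
  set δ : Multiplicative (ZMod 2) →* T := AddMonoidHom.toMultiplicativeLeft (ZMod.lift 2 ⟨(zmultiplesHom (Additive T)) (Additive.ofMul t), by
      show (2 : ℤ) • Additive.ofMul t = 0
      rw [two_zsmul, ← ofMul_mul, htt, ofMul_one]⟩) with hδ
  obtain ⟨m, hm⟩ := sum_eq (isCharacter_comp δ hψc)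
  have hm' : (d : ℂ) + ψ t = 2 * m := by
    have h1 : ∑ x : Multiplicative (ZMod 2), ψ (δ x) = ψ (δ 1) + ψ (δ (Multiplicative.ofAdd 1)) :=
      Fin.sum_univ_two (fun x : Fin 2 => ψ (δ (Multiplicative.ofAdd (x : ZMod 2))))
    have h2 : δ (Multiplicative.ofAdd 1) = t := by
      show Additive.toMul ((ZMod.lift 2 _) 1) = t
      rw [hZ]
      rfl
    rw [map_one, hd, h2] at h1
    have h3 : Fintype.card (Multiplicative (ZMod 2)) = 2 := rfl
    rw [h3] at hm
    rw [← h1]
    exact hm
  refine ⟨2 * m - d, ?_⟩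
  push_cast
  linear_combination hm'

/-- in a simple group a nontrivial irreducible character has trivial kernel -/
theorem val_ne [IsSimpleGroup T] {t : T} (ht : t ≠ 1) {ψ : T → ℂ} (hψ : IsIrrCharacter T ψ) (hne : ψ ≠ 1)
    (h : ψ t = ψ 1) : False := by
  have : Fintype T := Fintype.ofFinite T
  set χ : IrrCharacter T := ⟨ψ, hψ⟩ with hχ
  have hker : chKer χ = ⊤ := by
    rcases (inferInstance : (chKer χ).Normal).eq_bot_or_eq_top with h0 | h0
    · exfalso
      apply ht
      have h1 : t ∈ chKer χ := h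
      rwa [h0, Subgroup.mem_bot] at h1
    · exact h0
  have hconst : ∀ g, ψ g = ψ 1 := by
    intro g
    have h1 : g ∈ chKer χ := by rw [hker]; exact Subgroup.mem_top g
    exact h1
  have h0 := classInner_irr_ne hψ isIrr_one hne
  rw [classInner] at h0
  simp only [hconst, Pi.one_apply, map_one, mul_one, Finset.sum_const, Finset.card_univ, nsmul_eq_mul] at h0
  rw [Nat.card_eq_fintype_card] at h0
  have hc : ((Fintype.card T : ℕ) : ℂ) ≠ 0 := by exact_mod_cast Fintype.card_ne_zero
  rw [← mul_assoc, inv_mul_cancel₀ hc, one_mul] at h0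
  exact isIrr_apply_one_ne_zero hψ h0

end val

/-- the possible pairs of a degree and a value at `t` -/
def pr : Fin 12 → ℤ × ℤ :=
  ![(10, -6), (14, -2), (20, 4), (21, 5), (28, -4), (32, 0), (35, 3), (42, -6), (45, -3), (64, 0), (70, 6), (90, -6)]

theorem num {d : ℕ} {v k : ℤ} (hd : d ∈ [1, 7, 10, 14, 20, 21, 28, 32, 35, 42, 45, 56, 64, 70, 90])
    (hv : v ^ 2 ≤ 63) (hne : v ≠ d) (hk : d + 15 * v = 16 * k) : ∃ i, pr i = ((d : ℤ), v) := by
  have h1 : -8 < v := by nlinarith
  have h2 : v < 8 := by nlinarith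
  simp only [List.mem_cons, List.mem_nil_iff, or_false] at hd
  rcases hd with rfl | rfl | rfl | rfl | rfl | rfl | rfl | rfl | rfl | rfl | rfl | rfl | rfl | rfl | rfl
  · exfalso; omega
  · exfalso; omega
  · obtain rfl : v = -6 := by omega
    exact ⟨0, rfl⟩
  · obtain rfl : v = -2 := by omega
    exact ⟨1, rfl⟩
  · obtain rfl : v = 4 := by omega
    exact ⟨2, rfl⟩
  · obtain rfl : v = 5 := by omega
    exact ⟨3, rfl⟩
  · obtain rfl : v = -4 := by omega
    exact ⟨4, rfl⟩
  · obtain rfl : v = 0 := by omega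
    exact ⟨5, rfl⟩
  · obtain rfl : v = 3 := by omega
    exact ⟨6, rfl⟩
  · obtain rfl : v = -6 := by omega
    exact ⟨7, rfl⟩
  · obtain rfl : v = -3 := by omega
    exact ⟨8, rfl⟩
  · exfalso; omega
  · obtain rfl : v = 0 := by omega
    exact ⟨9, rfl⟩
  · obtain rfl : v = 6 := by omega
    exact ⟨10, rfl⟩
  · obtain rfl : v = -6 := by omega
    exact ⟨11, rfl⟩

theorem no_sol1 (a b c d e f g h i j : ℕ)
    (h1 : 36 * a + 4 * b + 16 * c + 25 * d + 16 * e + 9 * f + 36 * g + 9 * h + 36 * i + 36 * j ≤ 63)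
    (h2 : 60 * a + 28 * b + 112 * e + 252 * g + 135 * h + 540 * j = 80 * c + 105 * d + 105 * f + 420 * i + 1) :
    False := by
  have ha : a ≤ 1 := by omega
  have hg : g ≤ 1 := by omega
  have hi : i ≤ 1 := by omega
  have hj : j ≤ 1 := by omega
  have hd : d ≤ 2 := by omega
  have hc : c ≤ 3 := by omega
  have he : e ≤ 3 := by omega
  have hf : f ≤ 7 := by omega
  have hh : h ≤ 7 := by omega
  interval_cases a <;> interval_cases g <;> interval_cases i <;> interval_cases j <;> omega

theorem no_sol0 (n : Fin 12 → ℕ) (h1 : ∑ j, (n j : ℤ) * (pr j).2 ^ 2 ≤ 63)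
    (h2 : ∑ j, (n j : ℤ) * ((pr j).1 * (pr j).2) = -1) : False := by
  simp only [Fin.sum_univ_succ, Fin.sum_univ_zero, pr, Matrix.cons_val_zero, Matrix.cons_val_succ] at h1 h2
  norm_num at h1 h2
  generalize n 0 = a at h1 h2
  generalize n 1 = b at h1 h2
  generalize n 2 = c at h1 h2
  generalize n (Fin.succ 2) = d at h1 h2
  generalize n (Fin.succ 2).succ = e at h1 h2
  generalize n (Fin.succ 2).succ.succ.succ = f at h1 h2
  generalize n (Fin.succ 2).succ.succ.succ.succ = g at h1 h2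
  generalize n (Fin.succ 2).succ.succ.succ.succ.succ = h at h1 h2
  generalize n (Fin.succ 2).succ.succ.succ.succ.succ.succ.succ = i at h1 h2
  generalize n (Fin.succ 2).succ.succ.succ.succ.succ.succ.succ.succ = j at h1 h2
  exact no_sol1 a b c d e f g h i j (by omega) (by omega)

theorem no_sol {ι : Type*} (s : Finset ι) (f : ι → Fin 12) (h1 : ∑ i ∈ s, (pr (f i)).2 ^ 2 ≤ 63)
    (h2 : ∑ i ∈ s, (pr (f i)).1 * (pr (f i)).2 = -1) : False := by
  classical
  have key : ∀ g : Fin 12 → ℤ, ∑ i ∈ s, g (f i) = ∑ j, ((s.filter fun i => f i = j).card : ℤ) * g j := by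
    intro g
    rw [← Finset.sum_fiberwise_of_maps_to (s := s) (t := Finset.univ) (g := f) (fun i _ => Finset.mem_univ _)]
    refine Finset.sum_congr rfl fun j _ => ?_
    rw [Finset.sum_congr rfl (g := fun _ => g j) (fun i hi => by rw [(Finset.mem_filter.1 hi).2]),
      Finset.sum_const, nsmul_eq_mul]
  rw [key (fun j => (pr j).2 ^ 2)] at h1
  rw [key (fun j => (pr j).1 * (pr j).2)] at h2
  exact no_sol0 (fun j => (s.filter fun i => f i = j).card) h1 h2

theorem l34_elim {F : Type} [Field F] [Fintype F] (hF : Fintype.card F = 4) {T : Type u} [Group T] [Finite T]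
    (e : T ≃* Matrix.ProjectiveSpecialLinearGroup (Fin 3) F)
    (h : ∀ ψ : T → ℂ, IsIrrCharacter T ψ → ∃ d ∈ [1, 7, 10, 14, 20, 21, 28, 32, 35, 42, 45, 56, 64, 70, 90],
      ψ 1 = ((d : ℕ) : ℂ)) : False := by
  classical
  have : Fintype T := Fintype.ofFinite T
  have hch := char_two hF
  set π : Matrix.SpecialLinearGroup (Fin 3) F →* T := e.symm.toMonoidHom.comp (QuotientGroup.mk' _) with hπ
  set t : T := π (us 1 0) with ht
  have het : e t = QuotientGroup.mk (us 1 0) := by
    rw [ht]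
    exact e.apply_symm_apply _
  have htne : t ≠ 1 := by
    intro h
    apply mk_us_ne (F := F)
    rw [← het, h, map_one]
  have htt : t * t = 1 := by
    rw [ht, ← map_mul, us_mul, CharTwo.add_self_eq_zero, add_zero, us_zero, map_one]
  have hs : IsSimpleGroup (Matrix.ProjectiveSpecialLinearGroup (Fin 3) F) := Cfsg.Agent.S0249.result 3 le_rfl
  have hsT : IsSimpleGroup T := e.isSimpleGroup
  have hfi := finite_irr (G := T)
  have : Fintype (IrrCharacter T) := Fintype.ofFinite _
  -- the values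
  have hv : ∀ χ : IrrCharacter T, ∃ (d : ℕ) (v : ℤ), (χ : T → ℂ) 1 = d ∧ (χ : T → ℂ) t = v ∧
      d ∈ [1, 7, 10, 14, 20, 21, 28, 32, 35, 42, 45, 56, 64, 70, 90] ∧ ∃ k : ℤ, d + 15 * v = 16 * k := by
    rintro ⟨ψ, hψ⟩
    obtain ⟨d, hd, hd1⟩ := h ψ hψ
    have hψc := isIrr_isCharacter hψ
    obtain ⟨v, hv⟩ := int_val htt hψ hd1
    refine ⟨d, v, hd1, hv, hd, ?_⟩
    have hval : ∀ a b : F, ¬ (a = 0 ∧ b = 0) → ψ (π (us a b)) = ψ t := by
      intro a b hab
      obtain ⟨g, hg⟩ := us_conj a b hab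
      have h1 : t = π g * π (us a b) * (π g)⁻¹ := by
        rw [ht, ← map_mul, hg, map_mul, mul_inv_cancel_right]
      rw [h1, isCharacter_isClassFunction hψc]
    obtain ⟨k, hk⟩ := sum_eq (isCharacter_comp (π.comp (uh F)) hψc)
    have hcard : Fintype.card (Multiplicative (F × F)) = 16 := by
      rw [Fintype.card_multiplicative, Fintype.card_prod, hF]
    have hsum : ∑ x : Multiplicative (F × F), ψ ((π.comp (uh F)) x) = d + 15 * ψ t := by
      rw [← Finset.add_sum_erase _ _ (Finset.mem_univ (1 : Multiplicative (F × F)))]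
      rw [map_one, hd1]
      congr 1
      rw [Finset.sum_congr rfl (g := fun _ => ψ t) (fun x hx => ?_), Finset.sum_const,
        Finset.card_erase_of_mem (Finset.mem_univ _), Finset.card_univ, hcard]
      · simp
      · refine hval _ _ fun h => (Finset.ne_of_mem_erase hx) ?_
        apply Multiplicative.toAdd.injective
        exact Prod.ext h.1 h.2
    refine ⟨k, ?_⟩
    have hk' : (d : ℂ) + 15 * v = 16 * k := by
      rw [hcard] at hk
      rw [← hv, ← hsum]
      exact hk
    exact_mod_cast hk'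
  choose d v hd hv hdm hk using hv
  -- the orthogonality relations
  set χ0 : IrrCharacter T := ⟨1, isIrr_one⟩ with hχ0
  have hd0 : d χ0 = 1 := by
    have h1 := hd χ0
    have h2 : (χ0 : T → ℂ) 1 = 1 := rfl
    rw [h2] at h1
    exact_mod_cast h1.symm
  have hv0 : v χ0 = 1 := by
    have h1 := hv χ0
    have h2 : (χ0 : T → ℂ) t = 1 := rfl
    rw [h2] at h1
    exact_mod_cast h1.symm
  have s1 : ∑ χ : IrrCharacter T, (v χ) ^ 2 ≤ 64 := by
    have h1 := col_orth t t
    rw [if_pos (IsConj.refl t)] at h1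
    have h2 : (((∑ χ : IrrCharacter T, (v χ) ^ 2 : ℤ)) : ℂ) =
        ((Nat.card (Subgroup.centralizer ({t} : Set T)) : ℤ) : ℂ) := by
      rw [Int.cast_natCast, ← h1]
      push_cast
      refine Finset.sum_congr rfl fun χ _ => ?_
      rw [hv χ, map_intCast, sq]
    have h3 : ∑ χ : IrrCharacter T, (v χ) ^ 2 = (Nat.card (Subgroup.centralizer ({t} : Set T)) : ℤ) := by
      exact_mod_cast h2
    rw [h3]
    exact_mod_cast card_cent hF e t het
  have s2 : ∑ χ : IrrCharacter T, (d χ : ℤ) * v χ = 0 := by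
    have h1 := col_orth (1 : T) t
    rw [if_neg (fun h => htne (isConj_one_right.1 h))] at h1
    have h2 : (((∑ χ : IrrCharacter T, (d χ : ℤ) * v χ : ℤ)) : ℂ) = ((0 : ℤ) : ℂ) := by
      rw [Int.cast_zero, ← h1]
      push_cast
      refine Finset.sum_congr rfl fun χ _ => ?_
      rw [hv χ, hd χ, map_intCast]
    exact_mod_cast h2
  rw [← Finset.add_sum_erase _ _ (Finset.mem_univ χ0), hv0] at s1
  rw [← Finset.add_sum_erase _ _ (Finset.mem_univ χ0), hv0, hd0] at s2
  have hex : ∀ χ : IrrCharacter T, ∃ i, χ ∈ Finset.univ.erase χ0 → pr i = ((d χ : ℤ), v χ) := by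
    intro χ
    by_cases hχ : χ ∈ Finset.univ.erase χ0
    · obtain ⟨k, hk⟩ := hk χ
      have h1 : v χ ^ 2 ≤ 63 := by
        have := Finset.single_le_sum (f := fun χ => v χ ^ 2) (fun χ _ => sq_nonneg (v χ)) hχ
        linarith
      have h2 : v χ ≠ d χ := by
        intro h2
        refine val_ne htne χ.2 (fun h3 => Finset.ne_of_mem_erase hχ (Subtype.ext h3)) ?_
        rw [hv χ, hd χ, h2, Int.cast_natCast]
      obtain ⟨i, hi⟩ := num (hdm χ) h1 h2 hk
      exact ⟨i, fun _ => hi⟩
    · exact ⟨0, fun h => absurd h hχ⟩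
  choose f hf using hex
  refine no_sol (Finset.univ.erase χ0) f ?_ ?_
  · rw [Finset.sum_congr rfl (g := fun χ => v χ ^ 2) (fun χ hχ => by rw [hf χ hχ])]
    linarith
  · rw [Finset.sum_congr rfl (g := fun χ => (d χ : ℤ) * v χ) (fun χ hχ => by rw [hf χ hχ])]
    push_cast at s2
    linarith

end Cfsg.Agent.H746.L34
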