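import Cfsg.Agent.H808.SmallSylow
import Cfsg.Agent.H704.Hooks
import Cfsg.Agent.S0252
import Cfsg.Agent.S0253
import Cfsg.Agent.S0254
import Cfsg.Agent.S0256

/-!
# Simple groups of Lie type with a large Sylow subgroup inside `A_n` (helper746, for S4941)

`lie_list` : if `T` is of Lie type in characteristic `p`, `2 |T|` divides `n!` and `n! P² < 2 |T|²` for the order `P`
of a Sylow `p`-subgroup, then `T ≅ A_n`, or `n = 7` and `|T| = 504`, or `n = 8` and `T ≅ L₃(4)`.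
-/

set_option autoImplicit false

universe u

namespace Cfsg.Agent.H746.LieList

open Cfsg Cfsg.Agent.NotCT

/-- the order of `t(p^k)` -/
def tord (p k : ℕ) (t : Typ) : ℕ := ((p ^ k) ^ t.N * t.P (p ^ k)) / t.D (p ^ k)

/-- the conditions on `t(p^(a/N))` -/
def okT (n p a : ℕ) (t : Typ) : Bool :=
  Nat.blt 0 t.N && Nat.beq (a % t.N) 0 && decide (t.Valid p (a / t.N)) &&
    Nat.beq (n.factorial % (2 * tord p (a / t.N) t)) 0 &&
    Nat.blt (n.factorial * (p ^ a) ^ 2) (2 * (tord p (a / t.N) t) ^ 2)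

/-- trial division -/
def isP (p : ℕ) : Bool := Nat.blt 1 p && (List.range p).all fun d => Nat.blt d 2 || !(Nat.beq (p % d) 0)

/-- the exceptions -/
def ex : List (ℕ × ℕ × ℕ × Typ) :=
  [(5, 2, 2, .L 2), (5, 5, 1, .L 2), (6, 3, 2, .L 2), (7, 2, 3, .L 2), (8, 2, 6, .L 3), (8, 2, 6, .L 4)]

/-- the check for `n` -/
def chkN (n : ℕ) : Bool :=
  (List.range (n + 1)).all fun p => !isP p || (List.range n).all fun a =>
    !(Nat.blt n.factorial (2 * (p ^ a) ^ 4)) || !(Nat.beq (n.factorial % p ^ a) 0) ||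
      (typs a).all fun t => !okT n p a t || ex.contains (n, p, a, t)

theorem check : ((List.range 40).all fun n => Nat.blt n 5 || chkN n) = true := by
  decide +kernel

theorem isP_of {p : ℕ} (hp : p.Prime) : isP p = true := by
  unfold isP
  rw [Bool.and_eq_true, Nat.blt_eq, List.all_eq_true]
  refine ⟨hp.one_lt, fun d hd => ?_⟩
  rw [List.mem_range] at hd
  rw [Bool.or_eq_true, Nat.blt_eq]
  by_cases h2 : d < 2
  · exact Or.inl h2
  · right
    rw [Bool.not_eq_true', ← Bool.not_eq_true, Nat.beq_eq]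
    intro h
    rcases (Nat.dvd_prime hp).1 (Nat.dvd_of_mod_eq_zero h) with h1 | h1
    · omega
    · omega

theorem pow_bound {n : ℕ} (h : 40 ≤ n) : 2 * (2 ^ (n - 1)) ^ 4 < n.factorial := by
  induction n, h using Nat.le_induction with
  | base => decide +kernel
  | succ n hn ih =>
    have h1 : (2 ^ (n + 1 - 1)) ^ 4 = 16 * (2 ^ (n - 1)) ^ 4 := by
      obtain ⟨m, rfl⟩ := Nat.exists_eq_add_of_le' (show 1 ≤ n by omega)
      simp only [Nat.add_sub_cancel]
      rw [pow_succ 2 m]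
      ring
    rw [h1, Nat.factorial_succ]
    calc 2 * (16 * (2 ^ (n - 1)) ^ 4) = 16 * (2 * (2 ^ (n - 1)) ^ 4) := by ring
      _ < 16 * n.factorial := by omega
      _ ≤ (n + 1) * n.factorial := Nat.mul_le_mul_right _ (by omega)

theorem lie_list {n p : ℕ} (hn : 5 ≤ n) (hp : p.Prime) {T : Type u} [Group T] [Finite T] [IsSimpleGroup T]
    (h : IsLieTypeChar p T)
    (hd : 2 * Nat.card T ∣ n.factorial)
    (hk : n.factorial * (ordProj[p] (Nat.card T)) ^ 2 < 2 * (Nat.card T) ^ 2) :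
    Nonempty (T ≃* alternatingGroup (Fin n)) ∨ (n = 7 ∧ p = 2 ∧ Nat.card T = 504) ∨
      (n = 8 ∧ ∃ (F : Type) (_ : Field F) (_ : Fintype F), Fintype.card F = 4 ∧
        Nonempty (T ≃* Matrix.ProjectiveSpecialLinearGroup (Fin 3) F)) := by
  have hcube := Cfsg.Agent.H315.OrderCube.card_lt_cube hp h
  obtain ⟨t, k, hv, ht⟩ := exists_typ hp h
  have ho := card_eq hp hv ht
  have hP : ordProj[p] (Nat.card T) = p ^ (k * t.N) :=
    Cfsg.Agent.H808.SmallSylow.ordProj_eq hp Nat.card_pos.ne' (dvd_card hp hv ho) (not_dvd_card hp hv ho)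
  rw [hP] at hk hcube
  have hN := N_pos hv
  have hk1 := one_le_k hv
  have hdv : p ^ (k * t.N) ∣ n.factorial := (dvd_card hp hv ho).trans ((Dvd.intro_left 2 rfl).trans hd)
  obtain ⟨a, ha⟩ : ∃ a, a = k * t.N := ⟨_, rfl⟩
  rw [← ha] at hk hcube hdv
  -- `n ! < 2 P ^ 4`
  have hc0 : 0 < Nat.card T := Nat.card_pos
  have h4 : n.factorial < 2 * (p ^ a) ^ 4 := by
    have h1 : (Nat.card T) ^ 2 < ((p ^ a) ^ 3) ^ 2 := Nat.pow_lt_pow_left hcube (by norm_num)
    have h2 : n.factorial * (p ^ a) ^ 2 < (2 * (p ^ a) ^ 4) * (p ^ a) ^ 2 := by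
      calc n.factorial * (p ^ a) ^ 2 < 2 * (Nat.card T) ^ 2 := hk
        _ ≤ 2 * ((p ^ a) ^ 3) ^ 2 := by omega
        _ = _ := by ring
    exact Nat.lt_of_mul_lt_mul_right h2
  have ha2 : p ^ a ≤ 2 ^ (n - 1) := by
    have h1 := Cfsg.Agent.H704.ordProj_factorial_le hp (show 1 ≤ n by omega)
    have h2 : a ≤ n.factorial.factorization p :=
      (hp.pow_dvd_iff_le_factorization (Nat.factorial_pos n).ne').1 hdv
    exact (Nat.pow_le_pow_right hp.pos h2).trans h1
  have hn40 : n < 40 := by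
    by_contra hcon
    push Not at hcon
    have h1 := pow_bound hcon
    have h2 : (p ^ a) ^ 4 ≤ (2 ^ (n - 1)) ^ 4 := Nat.pow_le_pow_left ha2 4
    omega
  have han : a < n := by
    have h1 : 2 ^ a ≤ p ^ a := Nat.pow_le_pow_left hp.two_le a
    have h2 := (Nat.pow_le_pow_iff_right (by norm_num : 1 < 2)).1 (h1.trans ha2)
    omega
  have ha0 : 0 < a := by rw [ha]; exact Nat.mul_pos hk1 hN
  have hpn : p < n + 1 := by
    have h1 : p ∣ n.factorial := (dvd_pow_self p ha0.ne').trans hdv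
    have := (hp.dvd_factorial).1 h1
    omega
  -- the order
  have hD : 0 < t.D (p ^ k) := by
    have h1 : t.D (p ^ k) * Nat.card T = (p ^ k) ^ t.N * t.P (p ^ k) := ho
    rcases Nat.eq_zero_or_pos (t.D (p ^ k)) with h0 | h0
    · exfalso
      have h2 := cop_D hp hv
      rw [h0, Nat.coprime_zero_right] at h2
      have := hp.one_lt
      have h3 : p = 1 := h2
      omega
    · exact h0
  have hord : tord p k t = Nat.card T := by
    have h1 : t.D (p ^ k) * Nat.card T = (p ^ k) ^ t.N * t.P (p ^ k) := ho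
    unfold tord
    rw [← h1]
    exact Nat.mul_div_cancel_left _ hD
  have hak : a / t.N = k := by rw [ha]; exact Nat.mul_div_cancel _ hN
  -- the check
  have hmem : (n, p, a, t) ∈ ex := by
    have c1 := (List.all_eq_true.1 check) n (List.mem_range.2 hn40)
    rw [Bool.or_eq_true, Nat.blt_eq] at c1
    have c2 : chkN n = true := c1.resolve_left (by omega)
    have c3 := (List.all_eq_true.1 c2) p (List.mem_range.2 hpn)
    rw [isP_of hp] at c3
    simp only [Bool.not_true, Bool.false_or] at c3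
    have c4 := (List.all_eq_true.1 c3) a (List.mem_range.2 han)
    rw [Bool.or_eq_true, Bool.or_eq_true, Bool.not_eq_true', Bool.not_eq_true', ← Bool.not_eq_true,
      ← Bool.not_eq_true, Nat.blt_eq, Nat.beq_eq] at c4
    rcases c4 with (c4 | c4) | c4
    · exact absurd h4 c4
    · exact absurd (Nat.mod_eq_zero_of_dvd hdv) c4
    · have c5 := (List.all_eq_true.1 c4) t (mem_typs hv ha.symm)
      rw [Bool.or_eq_true, List.contains_iff_mem] at c5
      refine c5.resolve_left ?_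
      rw [Bool.not_eq_true', Bool.not_eq_false]
      unfold okT
      rw [hak, hord]
      simp only [Bool.and_eq_true, Nat.blt_eq, Nat.beq_eq, decide_eq_true_eq]
      exact ⟨⟨⟨⟨hN, by rw [ha]; exact Nat.mul_mod_left _ _⟩, hv⟩, Nat.mod_eq_zero_of_dvd hd⟩, hk⟩
  simp only [ex, List.mem_cons, List.mem_nil_iff, or_false, Prod.mk.injEq] at hmem
  rcases hmem with ⟨rfl, rfl, ha', rfl⟩ | ⟨rfl, rfl, ha', rfl⟩ | ⟨rfl, rfl, ha', rfl⟩ | ⟨rfl, rfl, ha', rfl⟩ |
    ⟨rfl, rfl, ha', rfl⟩ | ⟨rfl, rfl, ha', rfl⟩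
  · obtain rfl : k = 2 := by rw [← hak, ha']; rfl
    obtain ⟨F, _, _, hF, ⟨e⟩⟩ := ht
    obtain ⟨e'⟩ := Cfsg.Agent.S0252.result hF
    exact Or.inl ⟨e.trans e'⟩
  · obtain rfl : k = 1 := by rw [← hak, ha']; rfl
    obtain ⟨F, _, _, hF, ⟨e⟩⟩ := ht
    obtain ⟨e'⟩ := Cfsg.Agent.S0253.result hF
    exact Or.inl ⟨e.trans e'⟩
  · obtain rfl : k = 2 := by rw [← hak, ha']; rfl
    obtain ⟨F, _, _, hF, ⟨e⟩⟩ := ht
    obtain ⟨e'⟩ := Cfsg.Agent.S0254.result hF
    exact Or.inl ⟨e.trans e'⟩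
  · obtain rfl : k = 3 := by rw [← hak, ha']; rfl
    refine Or.inr (Or.inl ⟨rfl, rfl, ?_⟩)
    rw [← hord]
    decide +kernel
  · obtain rfl : k = 2 := by rw [← hak, ha']; rfl
    obtain ⟨F, hf1, hf2, hF, he⟩ := ht
    exact Or.inr (Or.inr ⟨rfl, F, hf1, hf2, hF, he⟩)
  · obtain rfl : k = 1 := by rw [← hak, ha']; rfl
    obtain ⟨F, _, _, hF, ⟨e⟩⟩ := ht
    obtain ⟨e'⟩ := Cfsg.Agent.S0256.result hF
    exact Or.inl ⟨e.trans e'⟩

end Cfsg.Agent.H746.LieList
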